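import Mathlib
import Cfsg.Agent.Lib.TwoGen.BCD
import Cfsg.Agent.Lib.Twist.E6

/-!
The finite Chevalley groups of the tabulated types are generated by two elements.
-/

set_option autoImplicit false

namespace CfsgLib.TwoGen

open CfsgLib.ClPres CfsgLib.Chev CfsgLib.Weyl CfsgLib.Twist Cfsg.Lie Subgroup

variable {F : Type*} [Field F] {G : Type*} [Group G] {K : Subgroup G} {D : ChevalleyDatum}

instance (D : ChevalleyDatum) (a b : ℕ) : Decidable (Comm0 D a b) := inferInstanceAs (Decidable (_ ∧ _))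

/-- a derivation of the roots in `T` from the roots in a list: the step `(a, b, k)` says `k = f a` or `k = a + b` -/
def derive (D : ChevalleyDatum) (f : ℕ → ℕ) (p : ℤ → Bool) (q : ℕ → ℕ → ℕ → Bool) (T : List ℕ) :
    List (ℕ × ℕ × ℕ) → List ℕ → Bool
  | [], A => T.all (· ∈ A)
  | (a, b, k) :: L, A => a ∈ A && (if b = D.nroots then f a == k else b ∈ A && b != D.neg a &&
      D.commTerms a b == [(k, nn D a b, 1, 1)] && p (nn D a b) && q a b k) && derive D f p q T L (k :: A)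

theorem derive_sound [Good D] {f : ℕ → ℕ} {p : ℤ → Bool} {q : ℕ → ℕ → ℕ → Bool} {T : List ℕ} {Y : ℕ → F → G}
    (hf : ∀ a < D.nroots, f a < D.nroots ∧ Cj K (Y a) (Y (f a))) (hp : ∀ c, p c → (c : F) ≠ 0)
    (hq : ∀ a < D.nroots, ∀ b < D.nroots, ∀ k c, b ≠ D.neg a → D.commTerms a b = [(k, c, 1, 1)] → q a b k →
      ∀ t u, Y b u * Y a t = Y a t * Y b u * Y k (-c * t * u)) {L : List (ℕ × ℕ × ℕ)} {A : List ℕ}
    (h : derive D f p q T L A) (hA : ∀ a ∈ A, a < D.nroots ∧ Fu K (Y a)) : ∀ a ∈ T, Fu K (Y a) := by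
  induction L generalizing A with
  | nil => exact fun a ha => (hA a (by simpa using List.all_eq_true.1 h a ha)).2
  | cons x L ih =>
    obtain ⟨a, b, k⟩ := x
    simp only [derive, Bool.and_eq_true, decide_eq_true_eq] at h
    obtain ⟨⟨h1, h2⟩, h3⟩ := h
    refine ih h3 (List.forall_mem_cons.2 ⟨?_, hA⟩)
    obtain ⟨h4, h5⟩ := hA a h1
    split_ifs at h2
    · obtain rfl := beq_iff_eq.1 h2
      exact ⟨(hf a h4).1, (hf a h4).2.fu.1 h5⟩
    · simp only [Bool.and_eq_true, decide_eq_true_eq, bne_iff_ne, beq_iff_eq] at h2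
      obtain ⟨⟨⟨⟨k1, k2⟩, k3⟩, k4⟩, k5⟩ := h2
      obtain ⟨k6, k7⟩ := hA b k1
      refine ⟨(commTerms_wt h4 k6 (k3 ▸ List.mem_singleton_self _)).1, fun t => ?_⟩
      have := mul_mem (k7 (-(nn D a b : F)⁻¹ * t)) (h5 1)
      rwa [hq a h4 b k6 k _ k2 k3 k5, K.mul_mem_cancel_left (mul_mem (h5 _) (k7 _)), mul_one, neg_mul _ t,
        neg_mul_neg, mul_inv_cancel_left₀ (hp _ k4)] at this

theorem Pt.fu' [Finite F] {x : F → G} (hx : IsAdd x) (h : Pt K x) {g : G} (hg : g ∈ K) {c : F} (ha : Acts g x c)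
    (hc : ∀ s, s ≠ 0 → ∃ i : ℕ, c ^ i = s ^ 2) : Fu K x := by
  obtain ⟨t, ht, h⟩ := h
  refine hx.mem_of_sq ht fun s hs => ?_
  obtain ⟨a, e⟩ := hc s hs
  rw [← e, mul_comm]
  exact (mem_iff_of_conj (pow_mem hg a) (ha.pow a t)).1 h

theorem sq_gen [Finite F] {ζ : F} (hζ : ∀ t : F, t ≠ 0 → ∃ i : ℕ, ζ ^ i = t) {e : ℤ}
    (he : e = 1 ∨ e = 2 ∨ e = 3 ∧ (3 : F) = 0) (s : F) (hs : s ≠ 0) : ∃ i : ℕ, (ζ ^ e) ^ i = s ^ 2 := by
  rcases he with rfl | rfl | ⟨rfl, h⟩
  · simpa using hζ _ (pow_ne_zero 2 hs)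
  · obtain ⟨i, rfl⟩ := hζ s hs
    exact ⟨i, by rw [zpow_ofNat, ← pow_mul, ← pow_mul, mul_comm]⟩
  · have : Fact (Nat.Prime 3) := ⟨Nat.prime_three⟩
    have : CharP F 3 := (CharP.charP_iff_prime_eq_zero Nat.prime_three).2 h
    obtain ⟨r, hr⟩ := Finite.surjective_of_injective (frobenius F 3).injective (s ^ 2)
    obtain ⟨i, rfl⟩ := hζ r (by rintro rfl; exact pow_ne_zero 2 hs (by simpa using hr.symm))
    exact ⟨i, by rw [zpow_ofNat, ← pow_mul, mul_comm, pow_mul, ← hr, frobenius_def]⟩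

variable [Good D] {K : Subgroup (GL D.Idx F)}

variable (D F) in
/-- a product of the elements `n_r(1)` for fundamental roots `r` -/
def wN (L : List ℕ) : GL D.Idx F := (L.map fun i => nU D F (D.simple i) 1).prod

variable (D) in
/-- a product of the elements `h_r(c)` -/
def hP (S : List ℕ) (c : F) : GL D.Idx F := (S.map fun s => hU D F s c).prod

theorem wN_mem (L : List ℕ) : wN F D L ∈ D.group F :=
  _root_.list_prod_mem fun _ hg => let ⟨_, _, e⟩ := List.mem_map.1 hg; e ▸ nU_mem_group _ _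

theorem cj_wN {L : List ℕ} (hL : ∀ i ∈ L, i < D.rank) (hK : wN F D L ∈ K) (a : ℕ) (ha : a < D.nroots) :
    L.foldr D.reflectRoot a < D.nroots ∧ Cj K (xU D F a) (xU D F (L.foldr D.reflectRoot a)) := by
  suffices L.foldr D.reflectRoot a < D.nroots ∧ ∃ c, c ≠ 0 ∧ ∀ t, wN F D L * xU D F a t * (wN F D L)⁻¹ =
    xU D F (L.foldr D.reflectRoot a) (c * t) from ⟨this.1, _, hK, this.2⟩
  clear hK
  induction L with
  | nil => exact ⟨ha, 1, one_ne_zero, by simp [wN]⟩
  | cons i L ih =>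
    obtain ⟨h1, c, h2, h3⟩ := ih fun j hj => hL j (List.mem_cons_of_mem _ hj)
    have hi := hL i List.mem_cons_self
    refine ⟨reflectRoot_lt hi h1, (eta D (D.simple i) (L.foldr D.reflectRoot a) : ℤ) * c, mul_ne_zero ?_ h2, fun t => ?_⟩
    · rcases eta_eq (simple_lt hi) h1 with e | e <;> simp [e]
    · rw [wN, List.map_cons, List.prod_cons, ← wN, ← conj_mul', h3, nU_conj_xU (simple_lt hi) h1 one_ne_zero,
        refl_simple hi h1, one_zpow, mul_one, mul_assoc, List.foldr_cons]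

theorem acts_hP {S : List ℕ} (hS : ∀ s ∈ S, s < D.nroots) {c : F} (hc : c ≠ 0) (r : ℕ) :
    Acts (hP D S c) (xU D F r) (c ^ (S.map (D.pairing · r)).sum) := by
  induction S with
  | nil => simpa [hP] using acts_one _
  | cons s S ih =>
    rw [List.map_cons, List.sum_cons, zpow_add₀ hc]
    exact Acts.mul (hU_conj_xU (hS s List.mem_cons_self) hc r) (ih fun j hj => hS j (List.mem_cons_of_mem _ hj))

theorem hP_mem {S : List ℕ} (h : ∀ s ∈ S ++ S.map D.neg, Fu K (xU D F s)) (c : F) : hP D S c ∈ K :=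
  _root_.list_prod_mem fun _ hg => by
    obtain ⟨s, hs, rfl⟩ := List.mem_map.1 hg
    have h1 := h s (List.mem_append_left _ hs)
    have h2 := h _ (List.mem_append_right _ (List.mem_map_of_mem hs))
    exact mul_mem (mul_mem (mul_mem (h1 _) (h2 _)) (h1 _)) (mul_mem (mul_mem (h1 _) (h2 _)) (h1 _))

theorem hP_pow [Fintype F] (h : RtOK D) {S : List ℕ} (hS : ∀ s ∈ S, s < D.nroots) {c : F} (hc : c ≠ 0) :
    hP D S c ^ (Fintype.card F - 1) = 1 := by
  rw [← card_units']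
  refine (sharp_stSys h F).H_pow_card (stSys_H (F := F) h ▸ _root_.list_prod_mem fun _ hg => ?_)
  obtain ⟨s, hs, rfl⟩ := List.mem_map.1 hg
  exact hU_mem_diagonalSubgroup (hS s hs) hc

variable (D) in
/-- the fundamental roots and their negatives -/
def sim : List ℕ := (List.range D.rank).flatMap fun i => [D.simple i, D.neg (D.simple i)]

variable (D) in
/-- derivations for the untwisted groups -/
abbrev der (p : ℤ → Bool) := derive D (fun a => (List.range D.rank).foldr D.reflectRoot a) p fun _ _ _ => true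

theorem der_sound {p : ℤ → Bool} (hp : ∀ c, p c → (c : F) ≠ 0) (hK : wN F D (List.range D.rank) ∈ K) {T : List ℕ}
    {L : List (ℕ × ℕ × ℕ)} {A : List ℕ} (h : der D p T L A) (hA : ∀ a ∈ A, a < D.nroots ∧ Fu K (xU D F a)) :
    ∀ a ∈ T, Fu K (xU D F a) :=
  derive_sound (cj_wN (fun _ => List.mem_range.1) hK) hp (fun a ha b hb k c h1 h2 _ t u => by
    rw [← comm_single ha hb h1 h2]; group) h hA

theorem group_le (h : RtOK D) (hK : ∀ a ∈ sim D, Fu K (xU D F a)) : D.group F ≤ K :=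
  (stSys_grp h).ge.trans (grp_le_of_simple _ fun j =>
    ⟨hK _ (List.mem_flatMap.2 ⟨j, List.mem_range.2 j.2, List.mem_cons_self⟩),
      hK _ (List.mem_flatMap.2 ⟨j, List.mem_range.2 j.2, List.mem_cons_of_mem _ List.mem_cons_self⟩)⟩)

variable [Fintype F]

theorem stage_one (h : RtOK D) {ζ : F} (h0 : ζ ≠ 0) {b r : ℕ} {S : List ℕ} (hS : ∀ s ∈ S, s < D.nroots)
    (hb : b < D.nroots) (hr : (List.range D.rank).foldr D.reflectRoot b = r) (h1 : (S.map (D.pairing · b)).sum = 0)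
    (h2 : ∀ s, s ≠ 0 → ∃ i : ℕ, (ζ ^ (S.map (D.pairing · r)).sum) ^ i = s ^ 2) {g : GL D.Idx F}
    (c1 : Commute g (xU D F b 1)) (c2 : ∀ t, Commute g (xU D F r t)) (hK : wN F D (List.range D.rank) ∈ K)
    (hK' : xU D F b 1 * (g * hP D S ζ * g⁻¹) ∈ K) : (r < D.nroots ∧ Fu K (xU D F r)) ∧ g * hP D S ζ * g⁻¹ ∈ K := by
  obtain ⟨h4, h5⟩ := mem_of_mul_mem ((c1.mul_left (acts_one_iff.1 (by simpa [h1] using acts_hP hS h0 b) 1)).mul_left
    c1.inv_left).symm (IsAdd.pow_ringChar (xU_add b) 1) (by rw [conj_pow, hP_pow h hS h0, mul_one, mul_inv_cancel])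
    coprime_ringChar hK'
  obtain ⟨h6, h7⟩ := hr ▸ cj_wN (fun _ => List.mem_range.1) hK b hb
  have c3 := acts_one_iff.2 c2
  exact ⟨⟨h6, Pt.fu' (xU_add r) (h7.pt.1 ⟨1, one_ne_zero, h4⟩) h5
    (((c3.mul (acts_hP hS h0 r)).mul (c3.inv one_ne_zero)).congr rfl (by simp)) h2⟩, h5⟩

theorem genBy_A (h : RtOK D) {p : ℤ → Bool} (hp : ∀ c, p c → (c : F) ≠ 0) (b r s : ℕ) (L : List (ℕ × ℕ × ℕ))
    (H : s < D.nroots ∧ b < D.nroots ∧ (List.range D.rank).foldr D.reflectRoot b = r ∧ D.pairing s b = 0 ∧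
      D.pairing s r = 1 ∧ der D p (sim D) L [r]) : GenBy (D.group F) 2 := by
  obtain ⟨h1, h2, h3, h4, h5, h6⟩ := H
  obtain ⟨ζ, h0, hζ⟩ := exists_generator (F := F)
  refine genBy_of_forall (wN_mem _) (mul_mem (xU_mem_group b 1) (hP_mem (S := [s]) (fun _ _ => xU_mem_group _) ζ))
    fun K k1 k2 => group_le h (der_sound hp k1 h6 ?_)
  simpa using (stage_one h h0 (S := [s]) (by simpa) h2 h3 (by simpa) (sq_gen hζ (by simp [h5])) (.one_left _)
    (fun _ => .one_left _) k1 (by simpa)).1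

theorem genBy_C (h : RtOK D) (hF : 2 < Fintype.card F) (b r c : ℕ) (S : List ℕ) (L L' : List (ℕ × ℕ × ℕ)) {e : ℤ}
    (he : e = 1 ∨ e = 2 ∨ e = 3 ∧ (3 : F) = 0) (H : (∀ s ∈ S, s < D.nroots) ∧ b < D.nroots ∧ c < D.nroots ∧
      (List.range D.rank).foldr D.reflectRoot b = r ∧ (S.map (D.pairing · b)).sum = 0 ∧
      (S.map (D.pairing · r)).sum = e ∧ (S.map (D.pairing · c)).sum = 1 ∧ Comm0 D c b ∧ Comm0 D c r ∧
      der D (·.natAbs == 1) (S ++ S.map D.neg) L [r] ∧ der D (·.natAbs == 1) (sim D) L' [r, c]) :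
    GenBy (D.group F) 2 := by
  obtain ⟨h1, h2, h3, h4, h5, rfl, h7, h8, h9, h10, h11⟩ := H
  obtain ⟨ζ, h0, hζ⟩ := exists_generator (F := F)
  have hp : ∀ c : ℤ, (c.natAbs == 1) → (c : F) ≠ 0 := fun c hc => by
    rcases Int.natAbs_eq_iff.1 (beq_iff_eq.1 hc) with rfl | rfl <;> simp
  have hx := xU_mem_group (D := D) c (1 : F)
  refine genBy_of_forall (wN_mem _) (mul_mem (xU_mem_group b 1) (mul_mem (mul_mem hx
    (hP_mem (S := S) (fun _ _ => xU_mem_group _) ζ)) (inv_mem hx))) fun K k1 k2 => group_le h (der_sound hp k1 h11 ?_)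
  have hr := (h4 ▸ cj_wN (fun _ => List.mem_range.1) k1 b h2).1
  obtain ⟨k3, k4⟩ := stage_one h h0 h1 h2 h4 h5 (sq_gen hζ he) (xU_commute h3 h2 h8 _ _)
    (xU_commute h3 hr h9 _) k1 k2
  have k5 := hP_mem (der_sound hp k1 h10 (by simpa using k3)) ζ
  have a1 := (acts_hP h1 h0 c).congr rfl (show _ = ζ by rw [h7, zpow_one])
  simpa using ⟨k3, h3, Pt.fu hζ (xU_add c) (mem_of_conj_tor (xU_add c) (pow_one ζ ▸ gen_sq_ne_one hζ one_pos hF) a1 k5 k4)
    k5 a1 (Or.inl rfl)⟩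

theorem genBy_S (h : RtOK D) (hF : ¬ 2 < Fintype.card F) (b c r k : ℕ) (R : List (ℕ × ℤ × ℕ × ℕ))
    (L L' : List (ℕ × ℕ × ℕ)) (H : b < D.nroots ∧ c < D.nroots ∧ r < D.nroots ∧ Comm0 D b c ∧ Comm0 D b (D.neg c) ∧
      Comm0 D (D.neg c) r ∧ c ≠ D.neg r ∧ D.commTerms r c = (k, 1, 1, 1) :: R ∧
      der D (·.natAbs == 1) (r :: R.map (·.1)) L [b] ∧ der D (·.natAbs == 1) (sim D) L' [b, k]) :
    GenBy (D.group F) 2 := by
  obtain ⟨h1, h2, h3, h4, h5, h6, h7, h8, h9, h10⟩ := H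
  have hp : ∀ c : ℤ, (c.natAbs == 1) → (c : F) ≠ 0 := fun c hc => by
    rcases Int.natAbs_eq_iff.1 (beq_iff_eq.1 hc) with rfl | rfl <;> simp
  have e2 := two_eq_zero_of_card hF
  have e1 : (-1 : F) = 1 := by linear_combination -e2
  refine genBy_of_forall (wN_mem _) (mul_mem (xU_mem_group b (1 : F)) (mul_mem (xU_mem_group c 1)
    (xU_mem_group (D.neg c) 1))) fun K k1 k2 => group_le h (der_sound hp k1 h10 ?_)
  obtain ⟨k3, k4⟩ := mem_of_mul_mem ((xU_commute h1 h2 h4 _ _).mul_right (xU_commute h1 (neg_lt h2) h5 _ _))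
    (IsAdd.pow_ringChar (xU_add b) 1) (by
      have e := nU_conj_xU h2 h2 (one_ne_zero' F) 1
      have e' : ∀ r, xU D F r 1 * xU D F r 1 = 1 := fun r => by rw [← xU_add, one_add_one_eq_two, e2, xU_zero]
      rw [refl_self h2, eta_self h2, nU, one_zpow, inv_one, Int.cast_neg, Int.cast_one, e1, mul_one, mul_one,
        mul_inv_eq_iff_eq_mul, mul_assoc, e', mul_one] at e
      rw [show ∀ x y : GL D.Idx F, (x * y) ^ 3 = x * (y * (x * y * x)) * y by intros; simp only [pow_three, mul_assoc],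
        ← e, ← mul_assoc, e', one_mul, e']) (coprime_three e2) k2
  have k5 := Pt.fu_of_le_three (by omega) (xU_add b) ⟨1, one_ne_zero, k3⟩
  have k6 := der_sound hp k1 h9 (by simpa using ⟨h1, k5⟩)
  have k7 := k6 r List.mem_cons_self
  have := mul_mem (mul_mem (mul_mem k4 (inv_mem (k7 1))) (inv_mem k4)) (k7 1)
  rw [← conj_mul', (xU_commute (neg_lt h2) h3 h6 _ _).inv_right.mul_inv_cancel, ← inv_inv (xU D F c 1), xU_inv c 1,
    inv_inv, xU_comm h3 h2 h7, ChevalleyDatum.commWord, h8, wordU, List.map_cons, List.map_cons, List.prod_cons,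
    K.mul_mem_cancel_right (_root_.list_prod_mem (by
      simp only [List.map_map, List.forall_mem_map]
      exact fun x hx => k6 _ (List.mem_cons_of_mem _ (List.mem_map_of_mem hx)) _))] at this
  simpa using ⟨⟨h1, k5⟩, (commTerms_wt h3 h2 (h8 ▸ List.mem_cons_self)).1,
    Pt.fu_of_le_three (by omega) (xU_add k) ⟨_, by simp, this⟩⟩

theorem genBy_chev (hD : D ∈ [chevG2, chevB2, chevD4, chevF4, chevE6, chevE7, chevE8])
    (hF : D = chevB2 → 2 < Fintype.card F) : GenBy (D.group F) 2 := by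
  have hp : ∀ c : ℤ, (c.natAbs == 1) → (c : F) ≠ 0 := fun c hc => by
    rcases Int.natAbs_eq_iff.1 (beq_iff_eq.1 hc) with rfl | rfl <;> simp
  have h := rtOK_of_mem hD
  simp only [List.mem_cons, List.not_mem_nil, or_false] at hD
  rcases hD with rfl | rfl | rfl | rfl | rfl | rfl | rfl
  · by_cases h3 : (3 : F) = 0
    · exact genBy_C h (by_contra fun h2 => one_ne_zero (α := F) (by linear_combination h3 - two_eq_zero_of_card h2))
        0 5 3 [5, 10] [(5, 12, 10), (10, 12, 11), (11, 12, 6), (6, 12, 1)] [(3, 12, 7), (5, 12, 10), (10, 12, 11),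
        (11, 12, 6), (7, 12, 9), (9, 12, 8), (8, 12, 4)] (Or.inr (Or.inr ⟨rfl, h3⟩)) (by decide +kernel)
    · exact genBy_A h (p := (·.natAbs == 3)) (fun c hc => by
        rcases Int.natAbs_eq_iff.1 (beq_iff_eq.1 hc) with rfl | rfl <;> simpa) 2 3 5 [(3, 12, 7), (3, 7, 5),
        (5, 12, 10), (10, 12, 11), (11, 12, 6), (7, 12, 9), (9, 12, 8), (8, 12, 4)] (by decide +kernel)
  · exact genBy_C h (hF rfl) 0 3 1 [3] [(3, 8, 7), (7, 8, 4)] [(1, 8, 5), (3, 8, 7), (7, 8, 4), (5, 8, 6), (6, 8, 2)]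
      (Or.inr (Or.inl rfl)) (by decide +kernel)
  · by_cases h2 : 2 < Fintype.card F
    · exact genBy_C h h2 7 11 18 [19] [(11, 24, 20), (11, 20, 19), (19, 24, 23), (23, 24, 17), (17, 24, 4)]
        [(18, 24, 14), (14, 24, 22), (11, 22, 21), (21, 24, 15), (15, 24, 13), (11, 24, 20), (20, 24, 16), (16, 24, 12),
        (22, 24, 5), (5, 24, 9), (11, 9, 8), (8, 24, 10)] (Or.inl rfl) (by decide +kernel)
    · exact genBy_S h h2 7 15 11 14 [] [(7, 24, 11)] [(7, 14, 10), (10, 24, 21), (7, 21, 18), (21, 24, 15), (15, 24, 13),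
        (14, 24, 22), (14, 22, 23), (23, 24, 17), (7, 17, 12), (22, 24, 5), (5, 24, 9), (7, 24, 11)] (by decide +kernel)
  · by_cases h2 : 2 < Fintype.card F
    · exact genBy_C h h2 4 16 11 [23] [(16, 48, 22), (22, 48, 23), (23, 48, 42), (42, 48, 30), (30, 48, 43), (43, 48, 31),
        (31, 48, 25), (25, 48, 24)] [(11, 48, 33), (33, 48, 27), (16, 48, 22), (22, 48, 23), (23, 48, 42), (42, 48, 30),
        (30, 48, 43), (43, 48, 31), (31, 48, 25), (25, 48, 24), (27, 48, 35), (35, 48, 38), (38, 48, 28), (28, 48, 36),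
        (36, 48, 14), (14, 48, 20)] (Or.inl rfl) (by decide +kernel)
    · exact genBy_S h h2 4 9 42 33 [(16, 1, 1, 2)] [(4, 48, 16), (16, 48, 22), (22, 48, 23), (23, 48, 42)] [(33, 48, 27),
        (4, 48, 16), (16, 48, 22), (22, 48, 23), (23, 48, 42), (42, 48, 30), (30, 48, 43), (43, 48, 31), (31, 48, 25),
        (25, 48, 24), (27, 48, 35), (35, 48, 38), (38, 48, 28), (28, 48, 36), (36, 48, 14), (14, 48, 20)]
        (by decide +kernel)
  · exact genBy_A h hp 12 19 0 [(19, 72, 32), (32, 72, 34), (34, 72, 35), (35, 72, 63), (19, 63, 56), (56, 72, 42),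
      (19, 42, 22), (22, 72, 46), (42, 72, 47), (47, 72, 59), (59, 72, 52), (52, 72, 39), (39, 72, 37), (37, 72, 36),
      (63, 72, 43), (43, 72, 48), (48, 72, 60), (60, 72, 15), (19, 32, 17), (17, 72, 31), (31, 72, 33), (33, 72, 62),
      (62, 72, 68), (68, 72, 53), (53, 72, 66), (66, 72, 45), (19, 45, 25), (15, 72, 29)] (by decide +kernel)
  · exact genBy_A h hp 45 28 0 [(28, 126, 39), (39, 126, 56), (56, 126, 59), (59, 126, 61), (61, 126, 62), (28, 62, 27),
      (27, 126, 93), (28, 39, 11), (11, 126, 36), (36, 126, 55), (55, 126, 58), (58, 126, 60), (60, 126, 101),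
      (28, 101, 78), (93, 126, 73), (62, 126, 102), (102, 126, 74), (74, 126, 80), (80, 126, 97), (97, 126, 86),
      (86, 126, 69), (69, 126, 66), (66, 126, 64), (64, 126, 63), (78, 126, 95), (95, 126, 84), (84, 126, 104),
      (104, 126, 113), (113, 126, 88), (88, 126, 107), (107, 126, 76), (28, 76, 32), (76, 126, 82), (82, 126, 47),
      (32, 126, 52)] (by decide +kernel)
  · exact genBy_A h hp 20 6 0 [(6, 240, 7), (7, 240, 14), (14, 240, 8), (8, 240, 16), (16, 240, 22), (22, 240, 37),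
      (37, 240, 79), (79, 240, 106), (106, 240, 110), (110, 240, 170), (170, 240, 185), (185, 240, 205), (205, 240, 227),
      (6, 227, 94), (94, 240, 71), (71, 240, 162), (6, 205, 57), (57, 240, 100), (100, 240, 93), (93, 240, 141),
      (162, 240, 135), (6, 100, 1), (1, 240, 0), (0, 240, 15), (15, 240, 21), (21, 240, 36), (36, 240, 78),
      (78, 240, 105), (105, 240, 169), (169, 240, 184), (184, 240, 204), (204, 240, 226), (226, 240, 234),
      (234, 240, 235), (235, 240, 236), (6, 236, 137), (137, 240, 144), (144, 240, 167), (167, 240, 151),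
      (151, 240, 130), (130, 240, 126), (126, 240, 123), (123, 240, 121), (121, 240, 120), (227, 240, 219),
      (219, 240, 233), (233, 240, 232), (232, 240, 225), (6, 225, 77), (225, 240, 231), (6, 231, 98), (77, 240, 104),
      (100, 77, 72), (72, 240, 88), (88, 240, 109), (109, 240, 113), (113, 240, 116), (116, 240, 118), (118, 240, 119)]
      (by decide +kernel)

omit [Good D] in
theorem exists_pair_of_genBy' {H : Subgroup G} (h : GenBy H 2) : ∃ a b : H, closure {a, b} = ⊤ :=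
  exists_pair_of_genBy (by simpa using h.comap H.subtype_injective H.range_subtype.ge)

end CfsgLib.TwoGen
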