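import Mathlib
import Cfsg.Agent.Lib.TwoGen.BCD
import Cfsg.Agent.Lib.OrthE.Mat

/-!
The orthogonal groups of minus type are generated by two elements.
-/

set_option autoImplicit false

namespace CfsgLib.TwoGen

open CfsgLib.ClPres CfsgLib.ClSys CfsgLib.OrthE Subgroup Function Sum QuadraticMap

variable {F V L : Type*} [Field F] [AddCommGroup V] [Module F V] [Field L] {m : ℕ}

/-- hyperbolic planes together with an anisotropic plane given as a quadratic field extension -/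
structure MFrame (Q : QuadraticForm F V) (b : II m → V) (j : F →+* L) (φ : L →+* L) (ι : L →+ V) : Prop where
  hb : ∀ a, Q (b a) = 0
  hbb : ∀ a c, polar Q (b a) (b c) = if c = a.swap then 1 else 0
  hιb : ∀ t a, polar Q (ι t) (b a) = 0
  hQ : ∀ t, j (Q (ι t)) = t * φ t
  hsm : ∀ c t, c • ι t = ι (j c * t)
  hφ : ∀ t, φ (φ t) = t
  hj : ∀ c, φ (j c) = j c
  span : ∀ v, ∃ (c : II m → F) (t : L), v = ∑ a, c a • b a + ι t

variable {Q : QuadraticForm F V} {b : II m → V} {j : F →+* L} {φ : L →+* L} {ι : L →+ V} {g g' : O Q}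
  {π ρ : sperm m} {σ τ : L → L} {K : Subgroup (O Q)}

variable (b ι) in
/-- `g` is monomial on the hyperbolic planes and acts as `σ` on the anisotropic plane -/
def Mn (g : O Q) (π : sperm m) (σ : L → L) : Prop :=
  (∀ a, ∃ l : F, l ≠ 0 ∧ g.1 (b a) = l • b (π.1 a)) ∧ ∀ t, g.1 (ι t) = ι (σ t)

theorem Mn.mul (h : Mn b ι g π σ) (h' : Mn b ι g' ρ τ) : Mn b ι (g * g') (π * ρ) (σ ∘ τ) :=
  ⟨fun a => by
    obtain ⟨l, h1, h2⟩ := h'.1 a
    obtain ⟨l', h3, h4⟩ := h.1 (ρ.1 a)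
    exact ⟨_, mul_ne_zero h1 h3, by rw [O_mul_apply, h2, map_smul, h4, smul_smul]; rfl⟩,
  fun t => by rw [O_mul_apply, h'.2, h.2]; rfl⟩

theorem Mn.inv (h : Mn b ι g π σ) (e : ∀ t, σ (τ t) = t) : Mn b ι g⁻¹ π⁻¹ τ :=
  ⟨fun a => by
    obtain ⟨l, h1, h2⟩ := h.1 (π⁻¹.1 a)
    refine ⟨_, inv_ne_zero h1, O_inv_apply_eq _ ?_⟩
    rw [map_smul, h2, smul_smul, inv_mul_cancel₀ h1, one_smul]; simp,
  fun t => O_inv_apply_eq _ (by rw [h.2, e])⟩

theorem Mn.congr (h : Mn b ι g π σ) (e : π = ρ) (e' : ∀ t, σ t = τ t) : Mn b ι g ρ τ :=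
  e ▸ (funext e' : σ = τ) ▸ h

namespace MFrame

variable (h : MFrame Q b j φ ι)
include h

theorem hbι (a : II m) (t : L) : polar Q (b a) (ι t) = 0 := by rw [polar_comm, h.hιb]

theorem hyp (a : II m) : Hyp Q (b a) (b a.swap) := ⟨h.hb _, h.hb _, by simp [h.hbb]⟩

theorem hιι (s t : L) : j (polar Q (ι s) (ι t)) = s * φ t + t * φ s := by
  rw [polar, ← map_add, map_sub, map_sub, h.hQ, h.hQ, h.hQ, map_add]; ring

theorem Q_ne {x : L} (hx : x ≠ 0) : Q (ι x) ≠ 0 := fun e => by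
  have := h.hQ x
  rw [e, map_zero] at this
  exact mul_ne_zero hx ((map_ne_zero φ).2 hx) this.symm

theorem refl_ι {x : L} (hx : x ≠ 0) (t : L) : (refl Q (ι x)).1 (ι t) = ι (-(x / φ x * φ t)) := by
  have := (map_ne_zero φ).2 hx
  rw [refl_apply, h.hsm, ← map_sub, map_mul, map_inv₀, h.hQ, h.hιι]
  congr 1; field_simp; ring

theorem isAdd (a : II m) : IsAdd fun t => eich Q (b a) (ι t) := fun s t => by
  simp only [eich_mul (h.hb _) (h.hbι _ _) (h.hbι _ _), map_add]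

theorem conj {a c : II m} {l : F} (e : g.1 (b a) = l • b c) (e' : ∀ t, g.1 (ι t) = ι (σ t)) (t : L) :
    g * eich Q (b a) (ι t) * g⁻¹ = eich Q (b c) (ι (j l * σ t)) := by
  rw [conj_eich, e, e', eich_smul_left _ (h.hb _) (h.hbι _ _), h.hsm]

theorem commute {c c' : L} (h1 : Mn b ι g 1 (c * ·)) (h2 : Mn b ι g' 1 (c' * ·)) : Commute g g' :=
  O_ext fun v => by
    obtain ⟨d, t, rfl⟩ := h.span v
    simp only [O_mul_apply, map_add, map_sum, h1.2, h2.2, mul_left_comm c]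
    congr 1
    refine Finset.sum_congr rfl fun a _ => ?_
    obtain ⟨l, -, e⟩ := h1.1 a
    obtain ⟨l', -, e'⟩ := h2.1 a
    simp only [OneMemClass.coe_one, Equiv.Perm.one_apply] at e e'
    simp only [map_smul, e, e', smul_smul, mul_right_comm _ l]

theorem fu_iff (hg : g ∈ K) (h1 : Mn b ι g π σ) (hσ : Surjective σ) (a : II m) :
    (Fu K fun t => eich Q (b a) (ι t)) ↔ Fu K fun t => eich Q (b (π.1 a)) (ι t) := by
  obtain ⟨l, h2, h3⟩ := h1.1 a
  refine ⟨fun e t => ?_, fun e t => (mem_iff_of_conj hg (h.conj h3 h1.2 t)).2 (e _)⟩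
  obtain ⟨s, hs⟩ := hσ ((j l)⁻¹ * t)
  simpa [hs, (map_ne_zero j).2 h2] using (mem_iff_of_conj hg (h.conj h3 h1.2 s)).1 (e _)

theorem eich_bb {a c : II m} (e : c ≠ a.swap) (s : F) (x : V) :
    (eich Q (b a) (s • b c)).1 x = x + (s * polar Q x (b c)) • b a - (s * polar Q x (b a)) • b c := by
  rw [eich_apply (h.hb _) (by simp [h.hbb, e]), Q_smul, h.hb]; simp [smul_smul, mul_comm]

theorem mn_ppS (w : Equiv.Perm (Fin m)) : ∃ g ∈ E Q, Mn b ι g (ppS w) id := by
  induction w using Equiv.Perm.swap_induction_on with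
  | one => exact ⟨1, one_mem _, fun a => ⟨1, one_ne_zero, by simp⟩, fun _ => rfl⟩
  | swap_mul w i k hik ih =>
    obtain ⟨g, h1, h2⟩ := ih
    have e1 : (inr k : II m) ≠ (inl i).swap := by simpa using hik.symm
    have e2 : (inr i : II m) ≠ (inl k).swap := by simpa using hik
    refine ⟨eich Q (b (inl i)) ((1 : F) • b (inr k)) * eich Q (b (inl k)) ((-1 : F) • b (inr i)) *
      eich Q (b (inl i)) ((1 : F) • b (inr k)) * g, mul_mem (mul_mem (mul_mem (eich_mem_E _ _) (eich_mem_E _ _))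
        (eich_mem_E _ _)) h1, map_mul ppS _ _ ▸ Mn.mul (σ := id) ⟨fun a => ?_, fun t => ?_⟩ h2⟩
    · refine ⟨if a = inl i ∨ a = inr i then -1 else 1, by split_ifs <;> simp, ?_⟩
      rcases a with a | a <;> by_cases e3 : a = i <;> by_cases e4 : a = k <;>
        simp [h.eich_bb e1, h.eich_bb e2, h.hbb, e3, e4, hik, hik.symm, Equiv.swap_apply_def, -one_smul,
          -neg_smul, eq_comm (a := k) (b := a), eq_comm (a := i) (b := a)] <;> simp_all
    · simp [h.eich_bb e1, h.eich_bb e2, h.hιb, -one_smul, -neg_smul]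

theorem rs_mem (hQ : Nondeg Q) (a : II m) {x : L} (hx : x ≠ 0) :
    refl Q (ι x) * refl Q (b a.swap + Q (ι x) • b a) ∈ E Q := by
  have := E_normal (Q := Q)
  rw [← QuotientGroup.ker_mk' (E Q), MonoidHom.mem_ker, map_mul, (h.hyp a).map_refl_orth _ hQ
    (QuotientGroup.ker_mk' _).ge (h.hιb _ _) (h.hιb _ _) (fun e => h.Q_ne hx (by rw [e, map_zero])), ← map_mul,
    refl_mul_self, map_one]

theorem rs_b (x : L) (a c : II m) : (refl Q (ι x) * refl Q (b a.swap + Q (ι x) • b a)).1 (b c) =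
    b c - ((Q (ι x))⁻¹ * polar Q (b c) (b a.swap + Q (ι x) • b a)) • (b a.swap + Q (ι x) • b a) := by
  rw [O_mul_apply, refl_apply_of_orth (by simp [refl_apply, h.hbι]), refl_apply, (h.hyp a).Q_add_smul]

theorem mn_rs {x : L} (hx : x ≠ 0) (a : II m) :
    Mn b ι (refl Q (ι x) * refl Q (b a.swap + Q (ι x) • b a)) (reflE a) fun t => -(x / φ x * φ t) := by
  have h0 := h.Q_ne hx
  refine ⟨fun c => ?_, fun t => by rw [O_mul_apply, refl_orth (h.hιb _ _) (h.hιb _ _), h.refl_ι hx]⟩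
  have h1 : a ≠ a.swap := by cases a <;> simp
  rw [h.rs_b]
  by_cases e1 : c = a
  · exact ⟨-(Q (ι x))⁻¹, by simpa, by simp [e1, h.hbb, reflE, h1, smul_smul, h0]⟩
  · by_cases e2 : c = a.swap
    · exact ⟨-Q (ι x), by simpa, by simp [e2, h.hbb, reflE, h1.symm, h0]⟩
    · refine ⟨1, one_ne_zero, ?_⟩
      have e3 : a ≠ c.swap := fun e => e2 (by simp [e])
      simp [h.hbb, reflE, Equiv.swap_apply_def, e1, e2, e3, swap_inj, Ne.symm e1]

theorem E_le (hQ : Nondeg Q) (a₀ : II m) {θ : L} (hθ : φ θ ≠ θ) (hK : ∀ a, Fu K fun t => eich Q (b a) (ι t)) :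
    E Q ≤ K := by
  obtain ⟨x, hx⟩ : ∃ x : L, polar Q (ι x) (ι 1) ≠ 0 := by
    by_contra! e
    have e1 := h.hιι 1 1
    have e2 := h.hιι θ 1
    rw [e, map_zero, map_one] at e1 e2
    exact hθ (by linear_combination θ * e1 - e2)
  have h1 : ∀ d a (c : F), a ≠ d.swap → eich Q (b d) (c • b a) ∈ K := fun d a c e => by
    have e' : d ≠ a.swap := fun e' => e (by simp [e'])
    have := mul_mem (inv_mem (hK d x)) (mul_mem (mul_mem (hK a (j (c / polar Q (ι x) (ι 1)) * 1)) (hK d x))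
      (inv_mem (hK a (j (c / polar Q (ι x) (ι 1)) * 1))))
    rwa [conj_eich, eich_apply_of_orth (by simp [h.hbb, e]) (h.hbι _ _), eich_apply_of_orth_left (h.hb _) (h.hbι _ _)
      (h.hιb _ _), ← eich_mul (h.hb _) (h.hbι _ _) (by simp [h.hbb, e]), inv_mul_cancel_left, ← h.hsm, polar_smul_right,
      smul_eq_mul, div_mul_cancel₀ _ hx] at this
  have h2 : ∀ d w, polar Q w (b d) = 0 → eich Q (b d) w ∈ K := fun d w e => by
    obtain ⟨c, t, rfl⟩ := h.span w
    have e1 : c d.swap = 0 := by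
      rw [← polarBilin_apply_apply] at e
      cases d <;> simpa [h.hbb, h.hιb] using e
    have := Finset.sum_induction (s := Finset.univ) (fun a => c a • b a)
      (fun v => polar Q (b d) v = 0 ∧ eich Q (b d) v ∈ K)
      (fun _ _ e e' => ⟨by simp [e.1, e'.1], eich_mul (h.hb d) e.1 e'.1 ▸ mul_mem e.2 e'.2⟩)
      ⟨by simp, by simp [eich_zero_right]⟩ fun a _ => by
        by_cases e : a = d.swap
        exacts [by simp [e, e1, eich_zero_right], ⟨by simp [h.hbb, e], h1 _ _ _ e⟩]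
    exact eich_mul (h.hb d) this.1 (h.hbι _ t) ▸ mul_mem this.2 (hK _ _)
  exact (h.hyp a₀).E_le hQ ⟨_, h.hιb 1 _, h.hιb 1 _, h.Q_ne one_ne_zero⟩ _ (fun w e _ => h2 _ w e) fun w _ e => h2 _ w e

end MFrame

theorem genBy_E {n : ℕ} {b : II (n + 2) → V} [Finite L] (h : MFrame Q b j φ ι) (hQ : Nondeg Q) {θ : L} (hθ : φ θ ≠ θ) :
    GenBy (E Q) 2 := by
  obtain ⟨ζ, h0, hζ⟩ := exists_generator (F := L)
  have h1 : φ ζ ≠ ζ := fun e => hθ (by
    rcases eq_or_ne θ 0 with rfl | e'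
    exacts [map_zero _, by obtain ⟨i, rfl⟩ := hζ θ e'; rw [map_pow, e]])
  have h2 : ζ ^ 2 ≠ 1 := fun e => h1 (by rcases mul_self_eq_one_iff.1 (pow_two ζ ▸ e) with rfl | rfl <;> simp)
  have h3 := (map_ne_zero φ).2 h0
  obtain ⟨g, hg, mg⟩ := h.mn_ppS (finRotate (n + 2))
  have mw := (mg.mul (h.mn_rs one_ne_zero (inl (Fin.last _)))).congr rfl (τ := fun t => -φ t) (by simp)
  have mh := ((h.mn_rs h0 (inl 1)).mul (h.mn_rs one_ne_zero (inl 1))).congr (ρ := 1) (τ := (ζ / φ ζ * ·))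
    (by ext; simp [reflE]) (by simp [h.hφ])
  have hc := cox_BC (n + 1)
  set w := g * _
  have mh' := ((mw.mul mh).mul (mw.inv (τ := fun t => -φ t) (by simp [h.hφ]))).congr (ρ := 1) (τ := (φ ζ / ζ * ·))
    (by simp) (by simp [h.hφ])
  have a1 := h.conj (a := inl 1) (c := inl 1) (l := Q (ι ζ)) (by
    have : Q (ι 1) = 1 := j.injective (by simp [h.hQ])
    rw [O_mul_apply, h.rs_b _ _ (inl 1), map_sub, map_smul, map_add, map_smul, h.rs_b, h.rs_b]
    simp [h.hbb, this, h.Q_ne h0]) mh.2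
  obtain ⟨l, hl, el⟩ := mw.1 (inl 0)
  rw [hc.succ 0 1 rfl (by simp)] at el
  have a2 := h.conj (a := inl 1) (c := inl 1) (l := 1) (by
    refine smul_right_injective V hl ?_
    simp only [one_smul]
    rw [← map_smul, ← el, O_mul_apply, O_inv_apply_apply, O_mul_apply, O_mul_apply _ _ (b _), h.rs_b]
    simp [h.hbb, refl_apply, h.hbι]) mh'.2
  refine genBy_of_forall (mul_mem (h.rs_mem hQ (inl 1) h0) (h.rs_mem hQ (inl 1) one_ne_zero))
    (mul_mem (eich_mem_E (b (inl 1)) (ι 1)) (mul_mem hg (h.rs_mem hQ (inl (Fin.last _)) one_ne_zero))) fun K m1 m2 => ?_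
  have a1' : Acts _ _ (ζ ^ 2) := fun t => (a1 t).trans (by rw [h.hQ]; congr 2; field_simp)
  have a2' : Acts _ _ (φ ζ / ζ) := fun t => (a2 t).trans (by rw [map_one, one_mul])
  have k := steinberg_trick (h.isAdd (inl 1)) a1' a2' (h.commute mh mh') m1 (by
    have := mul_mem (mul_mem m2 m1) (inv_mem m2)
    rwa [← conj_mul'] at this)
  have hf := Pt.fu hζ (h.isAdd (inl 1)) ⟨_, mul_ne_zero (sub_ne_zero.2 h2) (sub_ne_zero.2 fun e => h1 (by
    rwa [eq_comm, div_eq_one_iff_eq h0] at e)), k⟩ m1 a1' (Or.inr rfl)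
  exact h.E_le hQ (inl 0) hθ fun a => hc.trans (by omega) (h.fu_iff ((K.mul_mem_cancel_left (hf 1)).1 m2) mw
    fun t => ⟨-φ t, by simp [h.hφ]⟩) (und_le _) hf a (und_le _)

theorem genBy_omegaMinus [Finite F] {n : ℕ} (hn : 2 ≤ n) {a c : F}
    (hac : ∀ z₁ z₂ : F, z₁ ^ 2 + a * z₁ * z₂ + c * z₂ ^ 2 = 0 → z₁ = 0 ∧ z₂ = 0) :
    GenBy (⊤ : Subgroup (Cfsg.Omega F (Cfsg.quadFormMinus n F a c))) 2 := by
  obtain ⟨n, rfl⟩ : ∃ k, n = k + 2 := ⟨n - 2, by omega⟩
  have : Fact (∀ r : F, r ^ 2 ≠ -c + a * r) := ⟨fun r h => one_ne_zero (hac (-r) 1 (by linear_combination h)).2⟩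
  have : Finite (QuadraticAlgebra F (-c) a) := Finite.of_equiv _ (QuadraticAlgebra.equivProd _ _).symm
  have hQ := nondeg_qMinus (n + 2) hac
  have h := genBy_E (Q := qMinus F (n + 2) a c) (b := fun a => Pi.single (inl a) 1) (L := QuadraticAlgebra F (-c) a)
    (j := algebraMap _ _) (φ := starRingEnd _) (ι := AddMonoidHom.mk' (fun t => Sum.elim 0 ![t.re, t.im]) fun s t => by
      ext (i | i)
      exacts [by simp, by fin_cases i <;> simp]) (θ := ⟨0, 1⟩) ⟨by rintro (i | i) <;> simp [qMinus_apply],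
    by rintro (i | i) (k | k) <;> simp [polar_qMinus_inl, polar_qMinus_inr, Pi.single_apply],
    by rintro t (i | i) <;> simp [polar_qMinus_inl, polar_qMinus_inr],
    fun t => by ext <;> simp [qMinus_apply, starRingEnd_apply, pow_two] <;> ring,
    fun s t => by
      ext (i | i)
      exacts [by simp, by fin_cases i <;> simp], star_star, fun c => by ext <;> simp [starRingEnd_apply],
    fun v => ⟨fun a => v (inl a), ⟨v (inr 0), v (inr 1)⟩, by
      ext (i | i)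
      exacts [by cases i <;> simp [Pi.single_apply], by fin_cases i <;> simp]⟩⟩ hQ fun h => disc_ne_zero hac (by
    have h1 := congrArg QuadraticAlgebra.re h
    have h2 := congrArg QuadraticAlgebra.im h
    simp only [starRingEnd_apply, QuadraticAlgebra.re_star, QuadraticAlgebra.im_star] at h1 h2
    linear_combination -2 * c * h2 - a * h1)
  set e := omegaEquiv (qMinus_eq (n + 2) a c) ((hyp_qMinus a c 0).E_eq_commutator_of_five hQ (by simp; omega))
  have := h.comap (f := (E _).subtype.comp e.toMonoidHom) (Subtype.val_injective.comp e.injective)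
    fun x hx => ⟨e.symm ⟨x, hx⟩, by simp⟩
  exact (eq_top_iff.2 fun x _ => (e x).2 : comap ((E _).subtype.comp e.toMonoidHom) (E _) = ⊤) ▸ this

end CfsgLib.TwoGen
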