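import Mathlib
import Cfsg.Agent.Lib.TwoGen.Chev
import Cfsg.Agent.Lib.Twist.D4
import Cfsg.Agent.Lib.LieAll.Defs

/-!
The twisted groups `³D₄(q)`, `²E₆(q)` are generated by two elements.
-/

set_option autoImplicit false

namespace CfsgLib.TwoGen

open CfsgLib.ClPres CfsgLib.Chev CfsgLib.Weyl CfsgLib.Twist CfsgLib.RGD CfsgLib.Stein Cfsg.Lie Subgroup

variable {F : Type*} [Field F] {G : Type*} [Group G] {K : Subgroup G}

/-- the product of the first `d` iterated images -/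
def nm (σ : G → G) : ℕ → G → G
  | 0, _ => 1
  | d + 1, g => nm σ d g * σ^[d] g

theorem commute_nm {σ : G → G} {d : ℕ} {b c : G} (h : ∀ i < d, Commute (σ^[i] b) c) : Commute (nm σ d b) c := by
  induction d with
  | zero => exact .one_left _
  | succ d ih => exact (ih fun i hi => h i (by omega)).mul_left (h d (by omega))

section Abs

variable {ι κ B : Type} [Fintype κ] [DecidableEq κ] {Φ : RootSys ι κ} {S : StSys Φ F G} {T : Tw S B} (hS : Sharp S)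
  {a b : G} {d : ℕ}
include hS

theorem iter_mem (ha : a ∈ S.grp) (i : ℕ) : T.σ^[i] a ∈ S.grp :=
  Function.Iterate.rec (· ∈ S.grp) ha (fun _ => T.σ_mem_grp hS) i

theorem iter_mul (ha : a ∈ S.grp) (hb : b ∈ S.grp) (i : ℕ) : T.σ^[i] (a * b) = T.σ^[i] a * T.σ^[i] b := by
  induction i with
  | zero => rfl
  | succ i ih => simp only [Function.iterate_succ_apply', ih, T.σ_mul _ (iter_mem hS ha i) _ (iter_mem hS hb i)]

theorem nm_mul (ha : a ∈ S.grp) (hb : b ∈ S.grp) (h : ∀ j < d, ∀ i < j, Commute (T.σ^[i] b) (T.σ^[j] a)) :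
    nm T.σ d (a * b) = nm T.σ d a * nm T.σ d b := by
  induction d with
  | zero => simp [nm]
  | succ d ih =>
    rw [nm, nm, nm, ih fun j hj => h j (by omega), iter_mul hS ha hb, (commute_nm (h d (by omega))).mul_mul_mul_comm]

theorem nm_conj (ha : a ∈ T.Fix) (hb : b ∈ S.grp) : a * nm T.σ d b * a⁻¹ = nm T.σ d (a * b * a⁻¹) := by
  induction d with
  | zero => simp [nm]
  | succ d ih =>
    rw [nm, nm, ← ih, iter_mul hS (mul_mem ha.1 hb) (inv_mem ha.1), iter_mul hS ha.1 hb, Function.iterate_fixed ha.2,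
      Function.iterate_fixed (inv_mem ha).2]
    group

theorem tw_trick [Finite F] {w h : G} (hw : w ∈ S.N ⊓ T.Fix) (hh : h ∈ S.H ⊓ T.Fix) {r s : ι}
    (hY : IsAdd fun t => nm T.σ d (S.x r t)) {l α β : F} (hl : l ≠ 0) (e : ∀ t, w * S.x s t * w⁻¹ = S.x r (l * t))
    (h1 : Acts h (S.x r) α) (h2 : Acts h (S.x s) β) (hα : α ≠ 1) (hβ : β ≠ 1)
    (hs : ∀ s, s ≠ 0 → ∃ i : ℕ, α ^ i = s ^ 2) (k1 : h ∈ K) (k2 : nm T.σ d (S.x r 1) * w ∈ K) :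
    Fu K (fun t => nm T.σ d (S.x r t)) ∧ w ∈ K := by
  have h3 : ∀ {g c}, g ∈ T.Fix → Acts g (S.x r) c → Acts g (fun t => nm T.σ d (S.x r t)) c := fun hg h t => by
    rw [nm_conj hS hg (S.x_mem_grp _ _), h]
  have := steinberg_trick hY (h3 hh.2 h1) (h3 (mul_mem (mul_mem hw.2 hh.2) (inv_mem hw.2)) (c := β) fun t => by
    rw [← mul_inv_cancel_left₀ hl t, ← e, mul_left_comm, ← e, ← h2]; group)
    (hS.H_comm hh.1 (S.N_conj_mem_H hw.1 hh.1)) k1 (by rw [conj_mul']; exact mul_mem (mul_mem k2 k1) (inv_mem k2))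
  have := Pt.fu' hY ⟨_, mul_ne_zero (sub_ne_zero.2 hα) (sub_ne_zero.2 hβ.symm), this⟩ k1 (h3 hh.2 h1) hs
  exact ⟨this, (K.mul_mem_cancel_left (this 1)).1 k2⟩

end Abs

variable {D : ChevalleyDatum} [Good D] {h : RtOK D} {B : Type} {T : Tw (stSys h F) B} {ρ : ℕ → ℕ} {d : ℕ}

variable (D ρ d) in
/-- the images of two root subgroups under distinct powers of the symmetry commute -/
def Sep (a b : ℕ) : Prop := ∀ j < d, ∀ i < j, Comm0 D (ρ^[i] a) (ρ^[j] b)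

instance (a b : ℕ) : Decidable (Sep D ρ d a b) := inferInstanceAs (Decidable (∀ j < d, ∀ i < j, _))

theorem commute_of_sep (hρ : ∀ r < D.nroots, ρ r < D.nroots ∧ ∀ t, ∃ u, T.σ (xU D F r t) = xU D F (ρ r) u) {a b : ℕ}
    (ha : a < D.nroots) (hb : b < D.nroots) (hs : Sep D ρ d a b) (t u : F) :
    ∀ j < d, ∀ i < j, Commute (T.σ^[i] (xU D F a t)) (T.σ^[j] (xU D F b u)) := fun j hj i hi => by
  have : ∀ i, ∀ r < D.nroots, ∀ t, ρ^[i] r < D.nroots ∧ ∃ u, T.σ^[i] (xU D F r t) = xU D F (ρ^[i] r) u := fun i => by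
    induction i with
    | zero => exact fun r hr t => ⟨hr, t, rfl⟩
    | succ i ih =>
      intro r hr t
      obtain ⟨u, e⟩ := (hρ r hr).2 t
      simpa only [Function.iterate_succ_apply, e] using ih _ (hρ r hr).1 u
  obtain ⟨h1, _, e1⟩ := this i a ha t
  obtain ⟨h2, _, e2⟩ := this j b hb u
  exact e1 ▸ e2 ▸ xU_commute h1 h2 (hs j hj i hi) _ _

theorem genBy_tw [Finite F] {m : ℕ} {T : Tw (stSys h F) (Fin m)} {M : Subgroup (GL D.Idx F)} (hM : IsTw T M)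
    (hρ : ∀ r < D.nroots, ρ r < D.nroots ∧ ∀ t, ∃ u, T.σ (xU D F r t) = xU D F (ρ r) u) {TT : ℕ}
    (hT : ∀ b r, (T.sw b r : ℕ) = actT TT b r) (W : List (Fin m)) {g : GL D.Idx F} (hg : g ∈ (stSys h F).H ⊓ M)
    {r s : ℕ} {α β : F} (h1 : Acts g (xU D F r) α) (h2 : Acts g (xU D F s) β) (hα : α ≠ 1) (hβ : β ≠ 1)
    (hs : ∀ s, s ≠ 0 → ∃ i : ℕ, α ^ i = s ^ 2) (hr : nm T.σ d (xU D F r 1) ∈ M) (A : List ℕ) (L : List (ℕ × ℕ × ℕ))
    (H : r < D.nroots ∧ s < D.nroots ∧ app TT W s = r ∧ Sep D ρ d r r ∧ derive D (app TT W) (·.natAbs == 1)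
      (fun a b k => Sep D ρ d a b ∧ Sep D ρ d b a ∧ Sep D ρ d k a ∧ Sep D ρ d k b) A L [r])
    (hA : ∀ K : Subgroup _, (∀ a ∈ A, Fu K fun t => nm T.σ d (xU D F a t)) → M ≤ K) : GenBy M 2 := by
  obtain ⟨h3, h4, h5, h6, h7⟩ := H
  have hS := hM.sharp
  have hx : ∀ r t, xU D F r t ∈ (stSys h F).grp := fun r t => (stSys_grp h).ge (xU_mem_group r t)
  obtain ⟨w, w1, w2, l, w3, w4⟩ := hM.exists_acts (T.pw_mem_W1 W)
  have w5 : ∀ a < D.nroots, app TT W a < D.nroots ∧ ∃ c, c ≠ 0 ∧ ∀ t, w * xU D F a t * w⁻¹ = xU D F (app TT W a) (c * t) :=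
    fun a ha => pw_val _ hT W ⟨a, ha⟩ ▸ ⟨Fin.is_lt _, _, left_ne_zero_of_mul_eq_one (w3 _), w4 ⟨a, ha⟩⟩
  refine genBy_of_forall hg.2 (mul_mem hr w2) fun K k1 k2 => hA K ?_
  obtain ⟨-, c, hc, e⟩ := w5 s h4
  obtain ⟨k3, k4⟩ := tw_trick hS ⟨w1, hM.le_fix w2⟩ ⟨hg.1, hM.le_fix hg.2⟩ (r := ⟨r, h3⟩) (s := ⟨s, h4⟩) (fun t u => by
    simp only [stSys_x]
    rw [xU_add, nm_mul hS (hx _ _) (hx _ _) (commute_of_sep hρ h3 h3 h6 _ _)]) hc (h5 ▸ e) h1 h2 hα hβ hs k1 k2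
  refine derive_sound (fun a ha => ?_) (fun c hc => ?_) (fun a ha b hb k c e1 e2 e3 t u => ?_) h7 (by simpa using ⟨h3, k3⟩)
  · obtain ⟨k5, c, hc, e⟩ := w5 a ha
    exact ⟨k5, w, k4, c, hc, fun t => by rw [nm_conj hS (hM.le_fix w2) (hx _ _), e]⟩
  · rcases Int.natAbs_eq_iff.1 (beq_iff_eq.1 hc) with rfl | rfl <;> simp
  · obtain ⟨s1, s2, s3, s4⟩ := of_decide_eq_true e3
    have hk := (commTerms_wt ha hb (e2 ▸ List.mem_singleton_self _)).1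
    rw [← nm_mul hS (hx _ _) (hx _ _) (commute_of_sep hρ ha hb s1 _ _), ← nm_mul hS (hx _ _) (hx _ _)
      (commute_of_sep hρ hb ha s2 _ _), ← nm_mul hS (mul_mem (hx _ _) (hx _ _)) (hx _ _) fun j hj i hi => by
        rw [iter_mul hS (hx _ _) (hx _ _)]
        exact (commute_of_sep hρ hk ha s3 _ _ j hj i hi).mul_right (commute_of_sep hρ hk hb s4 _ _ j hj i hi),
      ← comm_single ha hb e1 e2]
    congr 1; group

theorem exists_not_fixed [Fintype F] {q d : ℕ} {φ : F →+* F} (hφ : ∀ t, φ t = t ^ q) (hF : Fintype.card F = q ^ (d + 2)) :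
    3 < Fintype.card F ∧ ∃ e, φ e ≠ e := by
  have h2 := two_le_of_card hF
  have h3 : q * 2 ≤ q ^ (d + 2) := by
    rw [pow_succ']; exact Nat.mul_le_mul_left _ (h2.trans (Nat.le_self_pow (by omega) q))
  obtain ⟨ζ, h0, hζ⟩ := exists_generator (F := F)
  refine ⟨by omega, ζ, fun e => gen_sq_ne_one hζ (k := q - 1) (by omega) (by omega) (mul_right_cancel₀ h0 ?_)⟩
  rw [← pow_succ, Nat.sub_add_cancel (by omega), ← hφ, e, one_mul]

theorem exists_trace_three {φ : F →+* F} (hφ : ∀ t, φ (φ (φ t)) = t) (h1 : ∃ e, φ e ≠ e) {μ : F} (hμ : φ μ = μ) :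
    ∃ s, s + φ s + φ (φ s) = μ := by
  obtain ⟨e, he⟩ : ∃ e, e + φ e + φ (φ e) ≠ 0 := by
    by_contra! h
    obtain ⟨e, he⟩ := h1
    have h2 := h (φ e * e)
    have h3 := h 1
    simp only [map_mul, map_one, hφ] at h2 h3
    refine he (sub_eq_zero.1 ((pow_eq_zero_iff two_ne_zero).1 ?_))
    linear_combination (e + φ e) * h e - e * φ e * h3 - h2
  refine ⟨μ * e / (e + φ e + φ (φ e)), ?_⟩
  simp only [map_div₀, map_mul, map_add, hφ, hμ]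
  rw [show φ e + φ (φ e) + e = e + φ e + φ (φ e) by ring, show φ (φ e) + e + φ e = e + φ e + φ (φ e) by ring]
  field_simp

theorem genBy_D4 [Fintype F] {q : ℕ} (hq : IsPrimePow q) (hF : Fintype.card F = q ^ 3) : GenBy (twistedD4 F q) 2 := by
  obtain ⟨φ, hφ⟩ := exists_frob hq hF
  have h3 := frob3 hφ hF
  have hM := isTwD4 hφ h3
  obtain ⟨h4, h5⟩ := exists_not_fixed hφ hF
  obtain ⟨ζ, h0, hζ⟩ := exists_generator (F := F)
  have h1 := (map_ne_zero φ).2 h0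
  have h2 := (map_ne_zero φ).2 h1
  have h6 := gen_sq_ne_one hζ two_pos h4
  have e : ∀ r ∈ [18, 5, 14, 9], ∀ t, nm (twD4 φ).σ 3 (xU chevD4 F r t) =
      xU chevD4 F r t * xU chevD4 F (rhoD4a r) (φ t) * xU chevD4 F (rhoD4a (rhoD4a r)) (φ (φ t)) := fun r hr t => by
    obtain ⟨k1, k2, k3, k4⟩ : r < chevD4.nroots ∧ rhoD4a r < chevD4.nroots ∧ epsD4a r = 1 ∧ epsD4a (rhoD4a r) = 1 := by
      revert r; decide
    simp [nm, twD4_σ_x φ k1, twD4_σ_x φ k2, k3, k4]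
  have a := hM.sharp.h3_conj (ndD4 0) (ndD4 2) (ndD4 3) h0 h1 h2
  have hw : ∀ (i : Fin 4) (r : Fin 24), (rootSys rtOKD4).wt (ndD4 i) (rtD4 r) = chevD4.cartan i r :=
    fun _ _ => rootSys_wt _ _ _
  have hc : chevD4.cartan 0 18 = 2 ∧ chevD4.cartan 2 18 = 0 ∧ chevD4.cartan 3 18 = 0 ∧ chevD4.cartan 0 17 = -1 ∧
    chevD4.cartan 2 17 = 1 ∧ chevD4.cartan 3 17 = 1 := by decide
  refine genBy_tw (ρ := rhoD4a) hM (fun r hr => ⟨by revert r; decide, fun t => ⟨_, twD4_σ_x φ hr t⟩⟩) swD4 [0, 1]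
    ⟨mul_mem (mul_mem (StSys.h_mem_H _ _ h0) (StSys.h_mem_H _ _ h1)) (StSys.h_mem_H _ _ h2),
      (twD4 φ).triple_h_mem piD4.1 piD4.2.2.1 piD4.2.2.2 orthD4_02 orthD4_03 orthD4_23 h3 hM ζ⟩
    (α := ζ ^ (2 : ℤ)) (β := ζ⁻¹ * φ ζ * φ (φ ζ)) (Acts.congr (a (rtD4 18)) rfl (by simp [hw, hc]))
    (Acts.congr (a (rtD4 17)) rfl (by simp [hw, hc])) (zpow_ofNat ζ 2 ▸ h6) (fun e => h6 (φ.injective (φ.injective ?_)))
    (sq_gen hζ (Or.inr (Or.inl rfl))) (e 18 (by simp) 1 ▸ x3_mem_D4 hφ (by decide) 1) [18, 5, 14, 9]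
    [(18, 24, 4), (4, 24, 6), (6, 24, 5), (18, 4, 9), (9, 24, 0), (0, 24, 1), (1, 24, 14)] (by decide +kernel)
    fun K hK => gen_le ?_
  · rw [mul_assoc, inv_mul_eq_one₀ h0] at e
    have := congrArg φ e
    simp only [map_mul, map_pow, map_one, h3] at this ⊢
    exact mul_left_cancel₀ h1 (by linear_combination -φ (φ ζ) * e - this)
  rintro _ (⟨t, ht, r, hr, rfl⟩ | ⟨t, r, hr, rfl⟩)
  · obtain ⟨s, rfl⟩ := exists_trace_three h3 h5 (hφ t ▸ ht)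
    have hr' : r ∈ [18, 5, 14, 9] ∧ rhoD4a r = r := by revert r; decide
    simpa [e r hr'.1, hr'.2, wordU, xU_add] using hK r hr'.1 s
  · have hr' : r.1 ∈ [18, 5, 14, 9] ∧ rhoD4a r.1 = r.2.1 ∧ rhoD4a r.2.1 = r.2.2 := by revert r; decide
    simpa [e _ hr'.1, hr'.2, wordU, hφ, sq, pow_mul, mul_assoc] using hK _ hr'.1 t

theorem genBy_E6 [Fintype F] {q : ℕ} (hq : IsPrimePow q) (hF : Fintype.card F = q ^ 2) : GenBy (twistedE6 F q) 2 := by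
  obtain ⟨φ, hφ⟩ := exists_frob hq hF
  have h3 := frob2 hφ hF
  have hM := isTwE6 hφ h3
  obtain ⟨h4, h5⟩ := exists_not_fixed hφ hF
  obtain ⟨ζ, h0, hζ⟩ := exists_generator (F := F)
  have h1 := (map_ne_zero φ).2 h0
  have h6 := gen_sq_ne_one hζ two_pos h4
  have e : ∀ r ∈ [56, 15, 42, 29, 46, 25, 39, 32], ∀ t, nm (twE6 φ).σ 2 (xU chevE6 F r t) =
      xU chevE6 F r t * xU chevE6 F (rhoE6 r) (φ t) := fun r hr t => by
    obtain ⟨k1, k3⟩ : r < chevE6.nroots ∧ epsE6 r = 1 := by revert r; decide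
    simp [nm, twE6_σ_x φ k1, k3]
  have a := hM.sharp.h2_conj (ndE6 0) (ndE6 5) h0 h1
  have hw : ∀ (i : Fin 6) (r : Fin 72), (rootSys rtOKE6).wt (ndE6 i) (rtE6 r) = chevE6.cartan i r :=
    fun _ _ => rootSys_wt _ _ _
  have hc : chevE6.cartan 0 56 = 2 ∧ chevE6.cartan 5 56 = 0 ∧ chevE6.cartan 0 10 = -1 ∧ chevE6.cartan 5 10 = 0 := by
    decide +kernel
  refine genBy_tw (ρ := rhoE6) hM (fun r hr => ⟨by revert r; decide +kernel, fun t => ⟨_, twE6_σ_x φ hr t⟩⟩) swE6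
    [3, 2, 1, 0] ⟨mul_mem (StSys.h_mem_H _ _ h0) (StSys.h_mem_H _ _ h1),
      (twE6 φ).pair_h_mem piE6.1 piE6.2.2.2.2.2 orthE6_05 h3 hM ζ⟩
    (α := ζ ^ (2 : ℤ)) (β := ζ⁻¹) (Acts.congr (a (rtE6 56)) rfl (by simp [hw, hc]))
    (Acts.congr (a (rtE6 10)) rfl (by simp [hw, hc])) (zpow_ofNat ζ 2 ▸ h6) (fun e => h6 (by rw [inv_eq_one.1 e, one_pow]))
    (sq_gen hζ (Or.inr (Or.inl rfl))) (e 56 (by simp) 1 ▸ x2_mem_E6 hφ (by decide) 1) [56, 15, 42, 29, 46, 25, 39, 32]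
    [(56, 72, 42), (42, 72, 41), (41, 72, 62), (62, 72, 43), (56, 43, 58), (58, 72, 52), (52, 72, 40), (40, 72, 61),
      (61, 72, 15), (15, 72, 29), (56, 42, 57), (57, 72, 45), (45, 72, 66), (66, 72, 67), (67, 72, 54), (56, 54, 65),
      (65, 72, 51), (51, 72, 39), (39, 72, 46), (43, 72, 49), (49, 72, 35), (35, 72, 34), (34, 72, 13), (56, 13, 28),
      (42, 28, 32), (32, 72, 25)] (by decide +kernel) fun K hK => gen_le ?_
  rintro _ (⟨t, ht, r, hr, rfl⟩ | ⟨t, r, hr, rfl⟩)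
  · obtain ⟨s, rfl⟩ := LieAll.exists_trace_eq h3 h5 (hφ t ▸ ht)
    have hr' : r ∈ [56, 15, 42, 29, 46, 25, 39, 32] ∧ rhoE6 r = r := by revert r; decide
    simpa [e r hr'.1, hr'.2, wordU, xU_add] using hK r hr'.1 s
  · have hr' : r.1 ∈ [56, 15, 42, 29, 46, 25, 39, 32] ∧ rhoE6 r.1 = r.2 := by revert r; decide
    simpa [e _ hr'.1, hr'.2, wordU, hφ] using hK _ hr'.1 t

end CfsgLib.TwoGen
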