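import Mathlib
import Cfsg.Agent.Lib.TwoGen.Twisted
import Cfsg.Agent.Lib.Twist.F4

/-!
The large Ree groups are generated by two elements.
-/

set_option autoImplicit false

namespace CfsgLib.TwoGen

open CfsgLib.ClPres CfsgLib.Chev CfsgLib.Weyl CfsgLib.Twist CfsgLib.RGD CfsgLib.Stein Cfsg.Lie Subgroup

variable {F : Type*} [Field F]

theorem comm_three {G : Type*} [Group G] {a b e a' b' e' p r : G} (h1 : a' * a = a * a' * p) (h2 : b' * b = b * b' * r)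
    (h : ∀ x ∈ [(b', a), (e', a), (e', b), (e', e), (a', b), (a', e), (b', e), (p, b), (p, e), (p, b'), (p, e'), (r, e),
      (r, e')], Commute x.1 x.2) : a' * b' * e' * (a * b * e) = a * b * e * (a' * b' * e') * (p * r) := by
  simp only [List.forall_mem_cons] at h
  obtain ⟨c1, c2, c3, c4, c5, c6, c7, c8, c9, c10, c11, c12, c13, -⟩ := h
  calc _ = a' * (b' * (e' * a)) * b * e := by group
    _ = a' * a * (b' * (e' * b)) * e := by rw [c2.eq, ← mul_assoc b', c1.eq]; group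
    _ = a * (a' * p * b) * (b' * r * (e' * e)) := by rw [h1, c3.eq, ← mul_assoc b', h2]; group
    _ = a * b * (a' * p * (b' * r) * e) * e' := by rw [c4.eq, (c5.mul_left c8).eq]; group
    _ = a * b * e * a' * (p * b') * (r * e') := by rw [((c6.mul_left c9).mul_left (c7.mul_left c12)).eq]; group
    _ = a * b * e * a' * b' * (p * e') * r := by rw [c10.eq, c13.eq]; group
    _ = _ := by rw [c11.eq]; group

theorem comm_four {D : ChevalleyDatum} [Good D] {a b c d a' b' c' d' p r : ℕ} {e e' : ℤ}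
    (h : (∀ x ∈ [a, b, c, d, a', b', c', d', p, r], x < D.nroots) ∧ a' ≠ D.neg a ∧ D.commTerms a a' = [(p, e, 1, 1)] ∧
      b' ≠ D.neg b ∧ D.commTerms b b' = [(r, e', 1, 1)] ∧ Comm0 D b' a ∧ Comm0 D a' b ∧ Comm0 D p b ∧ Comm0 D p b' ∧
      (∀ x ∈ [c, d], ∀ y ∈ [a', b', c', d', p, r], Comm0 D y x) ∧ ∀ x ∈ [c', d'], ∀ y ∈ [a, b, p, r], Comm0 D y x)
    (t₁ t₂ t₃ t₄ u₁ u₂ u₃ u₄ : F) : xU D F a' u₁ * xU D F b' u₂ * xU D F c' u₃ * xU D F d' u₄ *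
      (xU D F a t₁ * xU D F b t₂ * xU D F c t₃ * xU D F d t₄) = xU D F a t₁ * xU D F b t₂ * xU D F c t₃ * xU D F d t₄ *
      (xU D F a' u₁ * xU D F b' u₂ * xU D F c' u₃ * xU D F d' u₄) *
      (xU D F p (-e * t₁ * u₁) * xU D F r (-e' * t₂ * u₂)) := by
  simp only [List.forall_mem_cons, List.not_mem_nil, false_imp_iff, implies_true, and_true] at h
  obtain ⟨⟨l1, l2, l3, l4, l5, l6, l7, l8, l9, l10⟩, h1, h2, h3, h4, h5, h6, h7, h8, ⟨⟨a1, a2, a3, a4, a5, a6⟩, b1, b2, b3,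
    b4, b5, b6⟩, ⟨c1, c2, c3, c4⟩, d1, d2, d3, d4⟩ := h
  have k : ∀ {y}, y < D.nroots → Comm0 D y c → Comm0 D y d → ∀ t, Commute (xU D F y t) (xU D F c t₃ * xU D F d t₄) :=
    fun h h1 h2 t => (xU_commute h l3 h1 _ _).mul_right (xU_commute h l4 h2 _ _)
  have k' : ∀ {y}, y < D.nroots → Comm0 D y c' → Comm0 D y d' → ∀ t, Commute (xU D F y t) (xU D F c' u₃ * xU D F d' u₄) :=
    fun h h1 h2 t => (xU_commute h l7 h1 _ _).mul_right (xU_commute h l8 h2 _ _)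
  simp only [mul_assoc _ (xU D F c _), mul_assoc _ (xU D F c' _)]
  refine comm_three (by rw [← comm_single l1 l5 h1 h2]; group) (by rw [← comm_single l2 l6 h3 h4]; group) ?_
  simp only [List.forall_mem_cons, List.not_mem_nil, false_imp_iff, implies_true, and_true]
  exact ⟨xU_commute l6 l1 h5 _ _, (k' l1 c1 d1 _).symm, (k' l2 c2 d2 _).symm, (k l7 a3 b3 _).mul_left (k l8 a4 b4 _),
    xU_commute l5 l2 h6 _ _, k l5 a1 b1 _, k l6 a2 b2 _, xU_commute l9 l2 h7 _ _, k l9 a5 b5 _, xU_commute l9 l6 h8 _ _,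
    k' l9 c3 d3 _, k l10 a6 b6 _, k' l10 c4 d4 _⟩

section Abs

variable {G : Type*} [Group G] {K : Subgroup G} {ι κ B : Type} [Fintype κ] [DecidableEq κ] [Finite ι] {Φ : RootSys ι κ}
  {S : StSys Φ F G} {T : Tw S B} (hS : Sharp S)
include hS

theorem tw_trick' {h h' y : G} (hh : h ∈ S.H ⊓ T.Fix) (hh' : h' ∈ S.H ⊓ T.Fix) {Ψ : Set ι} (hΨ : S.UU Ψ ≤ S.U)
    (hy : y ∈ S.UU Ψ ⊓ T.Fix) {i : κ} {α β : F} (h1 : Acts h (S.x (Φ.simple i)) α) (h2 : Acts h' (S.x (Φ.simple i)) β)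
    (k1 : h ∈ K) (k2 : y * h' * y⁻¹ ∈ K) :
    ∃ z ∈ S.UU Ψ ⊓ T.Fix, z ∈ K ∧ S.scoef i z = (α - 1) * (1 - β) * S.scoef i y := by
  have h3 : ∀ {g c u}, g ∈ S.H ⊓ T.Fix → Acts g (S.x (Φ.simple i)) c → u ∈ S.UU Ψ ⊓ T.Fix →
      g * u * g⁻¹ ∈ S.UU Ψ ⊓ T.Fix ∧ S.scoef i (g * u * g⁻¹) = c * S.scoef i u := fun hg ha hu => by
    obtain ⟨l, -, e⟩ := S.acts_of_mem_H hg.1
    refine ⟨⟨S.H_conj_mem_UU hg.1 hu.1, T.Fix.mul_mem (T.Fix.mul_mem hg.2 hu.2) (T.Fix.inv_mem hg.2)⟩, ?_⟩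
    rw [hS.nondeg.scoef_conj i e (hΨ hu.1), mul_right_cancel₀ one_ne_zero
      (hS.nondeg.x_injective _ ((e _ 1).symm.trans (ha 1)))]
  obtain ⟨a1, a2⟩ := h3 hh' h2 (inv_mem hy)
  have a3 := mul_mem hy a1
  obtain ⟨a4, a5⟩ := h3 hh h1 a3
  refine ⟨_, mul_mem a4 (inv_mem a3), ?_, ?_⟩
  · convert mul_mem (mul_mem (mul_mem k1 k2) (inv_mem k1)) (inv_mem k2) using 1
    simp only [mul_assoc, mul_inv_rev, inv_inv, mul_right_inj]
    rw [← mul_assoc, ← mul_assoc, ← mul_inv_rev, hS.H_comm hh.1 hh'.1]; group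
  · rw [hS.nondeg.scoef_mul i (hΨ a4.1) (hΨ (inv_mem a3.1)), a5, hS.nondeg.scoef_inv i (hΨ a3.1),
      hS.nondeg.scoef_mul i (hΨ hy.1) (hΨ a1.1), a2, hS.nondeg.scoef_inv i (hΨ hy.1)]
    ring

theorem scoef_four {i : κ} {a b c d : ι} (hb : b = Φ.simple i) (h : ∀ r ∈ [a, c, d], Φ.Pos r ∧ r ≠ b) (t₁ t₂ t₃ t₄ : F) :
    S.scoef i (S.x a t₁ * S.x b t₂ * S.x c t₃ * S.x d t₄) = t₂ := by
  subst hb
  simp only [List.forall_mem_cons] at h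
  obtain ⟨⟨a1, a2⟩, ⟨c1, c2⟩, ⟨d1, d2⟩, -⟩ := h
  have b1 := S.x_mem_U (Φ.pos_simple i) t₂
  rw [hS.nondeg.scoef_mul _ (mul_mem (mul_mem (S.x_mem_U a1 _) b1) (S.x_mem_U c1 _)) (S.x_mem_U d1 _),
    hS.nondeg.scoef_mul _ (mul_mem (S.x_mem_U a1 _) b1) (S.x_mem_U c1 _), hS.nondeg.scoef_mul _ (S.x_mem_U a1 _) b1,
    hS.nondeg.scoef_x_of_ne a1 a2, hS.nondeg.scoef_x_of_ne c1 c2, hS.nondeg.scoef_x_of_ne d1 d2, hS.nondeg.scoef_x_self,
    zero_add, add_zero, add_zero]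

omit hS [Finite ι] in
theorem le_of_iter {w : G} (hw : w ∈ T.Fix) (hK : w ∈ K) {π : Equiv.Perm ι} (ha : S.Acts w π) {Ψ : Set ι}
    (h : S.UU Ψ ⊓ T.Fix ≤ K) (k : ℕ) : S.UU (π^[k] ⁻¹' Ψ) ⊓ T.Fix ≤ K := by
  induction k with
  | zero => exact h
  | succ k ih => exact fun g hg => (mem_iff_of_conj hK rfl).2 (ih ⟨conj_mem_UU ha (fun r hr => hr) hg.1,
      T.Fix.mul_mem (T.Fix.mul_mem hw hg.2) (T.Fix.inv_mem hw)⟩)

omit hS [Finite ι] in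
theorem b2_mem [Finite F] {a b c d : ι} (hR : B2Rel S a b c d) {θ : F →+* F} (hθ : ∀ t, θ (θ t) ^ 2 = t) {ζ : F}
    (hζ : ∀ t : F, t ≠ 0 → ∃ i : ℕ, ζ ^ i = t) {h : G} (hK : h ∈ K) (ha : Acts h (S.x a) (θ ζ)) (hb : Acts h (S.x b) ζ)
    (hc : Acts h (S.x c) (ζ * θ ζ)) (hd : Acts h (S.x d) (ζ * θ ζ ^ 2)) {s : F → F → G}
    (hs : ∀ t u, s t u = S.x a (θ t) * S.x b t * S.x c (θ t * t + u) * S.x d (θ u ^ 2)) {t u : F} (ht : t ≠ 0)
    (h1 : s t u ∈ K) (t' u' : F) : s t' u' ∈ K := by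
  have two := hR.two
  have s1 : ∀ t u v, s t (u + v) = s t u * s 0 v := fun t u v => by
    rw [hs, hs, hs, show θ (u + v) ^ 2 = θ u ^ 2 + θ v ^ 2 by rw [map_add]; linear_combination θ u * θ v * two]
    simp only [map_zero, S.x_zero, one_mul, zero_mul, zero_add, S.x_add, mul_assoc]
    rw [← mul_assoc (S.x d _), ← (hR.cd _ _).eq, mul_assoc]
  have s2 : ∀ t u, h * s t u * h⁻¹ = s (ζ * t) (ζ * θ ζ * u) := fun t u => by
    simp only [hs, ← conj_mul, ha _, hb _, hc _, hd _, map_mul, mul_pow, hθ]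
    congr 3 <;> ring
  have s3 : s t u * s t u = s 0 (θ t * t) := by
    have e : ∀ t t' u u', Commute (S.x a t * S.x b t') (S.x c u * S.x d u') :=
      fun _ _ _ _ => ((hR.ac _ _).mul_right (hR.ad _ _)).mul_left ((hR.bc _ _).mul_right (hR.bd _ _))
    have e1 : ∀ r t, S.x r t * S.x r t = 1 := fun r t => by rw [← S.x_add, ← two_mul, two, zero_mul, S.x_zero]
    simp only [hs, mul_assoc _ (S.x c _), map_zero, S.x_zero, one_mul, zero_mul, zero_add, map_mul, mul_pow, hθ]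
    rw [(e _ _ _ _).symm.mul_mul_mul_comm, (hR.cd _ _).symm.mul_mul_mul_comm, e1, e1, mul_one, mul_one, mul_assoc,
      ← mul_assoc (S.x b t), hR.comm, mul_assoc _ _ (S.x b t), ← ((hR.bc _ _).mul_right (hR.bd _ _)).eq]
    simp only [← mul_assoc, e1, one_mul, mul_comm t]
  have s4 : Fu K (s 0) := Pt.fu' (s1 0) ⟨_, by simpa, s3 ▸ mul_mem h1 h1⟩ hK (fun u => mul_zero ζ ▸ s2 0 u) fun v hv => by
    obtain ⟨x, hx⟩ := Finite.surjective_of_injective (f := fun x => x * θ x) (fun x y e => by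
      have e' := congrArg (θ · ^ 2) e
      simp only [map_mul, mul_pow, hθ] at e e'
      rcases mul_eq_zero.1 (show (θ x - θ y) * (x * θ x) = 0 by linear_combination e' - θ y * e) with h | h
      exacts [θ.injective (sub_eq_zero.1 h), by simp_all]) (v ^ 2)
    obtain ⟨i, rfl⟩ := hζ x (by rintro rfl; exact pow_ne_zero 2 hv (by simpa using hx.symm))
    exact ⟨i, by simpa only [mul_pow, map_pow] using hx⟩
  have s5 : ∀ i : ℕ, ∃ v, s (ζ ^ i * t) v ∈ K := fun i => by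
    induction i with
    | zero => exact ⟨u, by simpa⟩
    | succ i ih => exact ih.elim fun v hv => ⟨_, by
        rw [pow_succ', mul_assoc, ← s2]; exact mul_mem (mul_mem hK hv) (inv_mem hK)⟩
  rcases eq_or_ne t' 0 with rfl | h2
  · exact s4 _
  · obtain ⟨i, e⟩ := hζ _ (div_ne_zero h2 ht)
    obtain ⟨v, hv⟩ := s5 i
    rw [e, div_mul_cancel₀ _ ht] at hv
    simpa [← s1] using mul_mem hv (s4 (u' - v))

end Abs

theorem genBy_F4 [Fintype F] [CharP F 2] {e : ℕ} {θ : F →+* F} (he : ∀ t, θ t = t ^ e) (hθ : ∀ t, θ (θ t) ^ 2 = t)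
    (hF : 2 < Fintype.card F) : GenBy (twistedF4 F e) 2 := by
  have hM := isTwF4 he hθ
  have hS := hM.sharp
  have two : (2 : F) = 0 := CharTwo.two_eq_zero
  obtain ⟨ζ, h0, hζ⟩ := exists_generator (F := F)
  have h1 := (map_ne_zero θ).2 h0
  have h2 : ζ ≠ 1 := pow_one ζ ▸ gen_sq_ne_one hζ one_pos hF
  obtain ⟨w, w1, w2, w0⟩ := hM.exists_acts (symF4.pw_mem_W1 [1, 0])
  obtain ⟨h, hh, ha⟩ : ∃ h ∈ (stSys rtOKF4 F).H ⊓ twistedF4 F e, ∀ r : Fin 48,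
      Acts h (xU chevF4 F r) (ζ ^ (-chevF4.cartan 3 r) * θ ζ ^ (-chevF4.cartan 0 r)) :=
    ⟨_, ⟨mul_mem (StSys.h_mem_H _ _ (inv_ne_zero h0)) (StSys.h_mem_H _ _ ((map_ne_zero _).2 (inv_ne_zero h0))),
      (twF4 θ hθ).pair_h_mem piF4.2.2.2 piF4.1 orthF4 (twF4_f03 θ hθ) hM ζ⁻¹⟩, fun r => Acts.congr
      (hS.h2_conj _ _ (inv_ne_zero h0) ((map_ne_zero _).2 (inv_ne_zero h0)) (rtF4 r)) rfl (by
        rw [twF4_f3, map_inv₀, inv_zpow', inv_zpow', rootSys_wt, rootSys_wt]; rfl)⟩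
  have hc : chevF4.cartan 3 24 = 2 ∧ chevF4.cartan 0 24 = 0 ∧ chevF4.cartan 3 33 = 0 ∧
      chevF4.cartan 0 33 = 2 ∧ chevF4.cartan 3 27 = 0 ∧ chevF4.cartan 0 27 = -1 ∧ chevF4.cartan 3 25 = -1 ∧
      chevF4.cartan 0 25 = 0 ∧ chevF4.cartan 3 28 = -1 ∧ chevF4.cartan 0 28 = -1 ∧ chevF4.cartan 3 30 = -1 ∧
      chevF4.cartan 0 30 = -2 ∧ chevF4.cartan 3 21 = -1 ∧ chevF4.cartan 0 21 = 0 := by decide +kernel
  have a24 : Acts h (xU chevF4 F 24) (ζ⁻¹ ^ 2) := (ha 24).congr rfl (by simp [hc])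
  have a33 : Acts h (xU chevF4 F 33) (θ (ζ⁻¹ ^ 2)) := (ha 33).congr rfl (by simp [hc])
  have a27 : Acts h (xU chevF4 F 27) (θ ζ) := (ha 27).congr rfl (by simp [hc])
  have a25 : Acts h (xU chevF4 F 25) ζ := (ha 25).congr rfl (by simp [hc])
  have a28 : Acts h (xU chevF4 F 28) (ζ * θ ζ) := (ha 28).congr rfl (by simp [hc])
  have a30 : Acts h (xU chevF4 F 30) (ζ * θ ζ ^ 2) := (ha 30).congr rfl (by simp [hc])
  have a21 : Acts h (xU chevF4 F 21) ζ := (ha 21).congr rfl (by simp [hc])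
  obtain ⟨s, hs⟩ : ∃ s : F → F → GL chevF4.Idx F, ∀ t u, s t u = xU chevF4 F 27 (θ t) * xU chevF4 F 25 t *
    xU chevF4 F 28 (θ t * t + u) * xU chevF4 F 30 (θ u ^ 2) := ⟨_, fun _ _ => rfl⟩
  have hU : ∀ g, g ∈ (stSys rtOKF4 F).UU (posJ (rootSys rtOKF4) (symF4.J 1)) ⊓ (twF4 θ hθ).Fix ↔
      ∃ p : F × F, g = s p.1 p.2 := fun g => by simp only [hs, mem_b2F4 hθ]
  have hco : ∀ t u, (stSys rtOKF4 F).scoef (ndF4 2) (s t u) = t := fun t u => hs t u ▸ scoef_four hS (a := rtF4 27)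
    (b := rtF4 25) (c := rtF4 28) (d := rtF4 30) (by decide +kernel) (by simp only [pos_iff_le]; decide +kernel) _ _ _ _
  refine genBy_of_forall hh.2 (mul_mem (hs 1 0 ▸ (x4_mem_F4 he 1 0).1) w2) fun K k1 k2 => ?_
  have f1 := hM.le_fix hh.2
  have f2 := hM.le_fix w2
  obtain ⟨z, z1, z2, z3⟩ := tw_trick' hS ⟨hh.1, f1⟩ ⟨StSys.N_conj_mem_H _ w1 hh.1, Subgroup.mul_mem _ (mul_mem f2 f1) (inv_mem f2)⟩
    (UU_posJ_le_U _ _) ((hU _).2 ⟨(1, 0), rfl⟩) (i := ndF4 2) a25 (β := ζ) (fun t => by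
      obtain ⟨l, l1, l2⟩ := w0
      have e : ∀ t, w * xU chevF4 F 21 t * w⁻¹ = (stSys rtOKF4 F).x ((rootSys rtOKF4).simple (ndF4 2)) _ := fun t =>
        (l2 (rtF4 21) t).trans (congrFun (congrArg _ (Fin.ext ((pw_val _ swF4 _ _).trans (by decide +kernel)))) _)
      rw [← mul_inv_cancel_left₀ (left_ne_zero_of_mul_eq_one (l1 (rtF4 21))) t, ← e, mul_left_comm, ← e, ← a21]; group)
    k1 (by rw [conj_mul']; exact mul_mem (mul_mem k2 k1) (inv_mem k2))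
  obtain ⟨⟨t, u⟩, rfl⟩ := (hU z).1 z1
  rw [hco, hco] at z3
  have k3 := b2_mem b2F4_pos hθ hζ k1 a27 a25 a28 a30 hs (z3 ▸ by simp [sub_eq_zero, h2, h2.symm]) z2
  have k4 := (K.mul_mem_cancel_left (k3 _ _)).1 k2
  have k5 := le_of_iter f2 k4 w0 fun g hg => let ⟨_, e⟩ := (hU g).1 hg; e ▸ k3 _ _
  have hm : ∀ {J : List ℕ} (r : ℕ) {k}, r < chevF4.nroots ∧ (app tSwF4 [(1 : Fin 2), 0])^[k] r ∈ J →
      ∀ {Ψ : Set (Fin chevF4.nroots)}, (∀ r, r ∈ Ψ ↔ r.1 ∈ J) → ∀ t,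
      xU chevF4 F r t ∈ (stSys rtOKF4 F).UU ((symF4.pw [1, 0])^[k] ⁻¹' Ψ) := fun r k h Ψ hΨ t =>
    (stSys rtOKF4 F).x_mem_UU (r := ⟨r, h.1⟩) (by
      rw [Set.mem_preimage, hΨ, Function.Semiconj.iterate_right (f := Fin.val) (pw_val _ swF4 [1, 0]) k]; exact h.2) t
  have k6 : ∀ t u, xU chevF4 F 20 (θ t) * xU chevF4 F 22 t * xU chevF4 F 19 (θ t * t + u) * xU chevF4 F 17 (θ u ^ 2) ∈ K :=
    fun t u => k5 4 ⟨mul_mem (mul_mem (mul_mem (hm 20 (by decide +kernel) posJF4_1 _)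
      (hm 22 (by decide +kernel) posJF4_1 _)) (hm 19 (by decide +kernel) posJF4_1 _))
      (hm 17 (by decide +kernel) posJF4_1 _), b2F4_neg_fix hθ t u⟩
  have k7 : xU chevF4 F 34 (θ 1) * xU chevF4 F 26 1 * xU chevF4 F 36 (θ 1 * 1 + 0) * xU chevF4 F 42 (θ 0 ^ 2) ∈ K :=
    k5 5 ⟨mul_mem (mul_mem (mul_mem (hm 34 (by decide +kernel) posJF4_1 _)
      (hm 26 (by decide +kernel) posJF4_1 _)) (hm 36 (by decide +kernel) posJF4_1 _))
      (hm 42 (by decide +kernel) posJF4_1 _), (twF4 θ hθ).b2_fix hS (a := rtF4 34) (b := rtF4 26) (c := rtF4 36)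
      (d := rtF4 42) (b2Rel_of _ (e₁ := -1) (e₂ := 0) (e₃ := -1) (by decide +kernel)) (twF4_σ_x θ hθ (r := 34) (by decide))
      (fun t => (twF4_σ_x θ hθ (r := 26) (by decide) t).trans (congrArg _ (pow_one _)))
      (show symF4.ρ _ = _ by decide +kernel) (show symF4.ρ _ = _ by decide +kernel) hθ 1 0⟩
  have k8 : Fu K fun t => xU chevF4 F 33 (θ t) * xU chevF4 F 24 t := by
    refine Pt.fu' (fun t u => ?_) ⟨1, one_ne_zero, ?_⟩ k1 (c := ζ⁻¹ ^ 2) (fun t => ?_) fun v hv => ?_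
    · rw [map_add, xU_add, xU_add, (xU_commute (by decide) (by decide) (by decide +kernel) _ _).mul_mul_mul_comm]
    · have k := mul_mem k7 (k6 1 0)
      rw [comm_four (p := 33) (r := 24) (e := 1) (e' := -1) (by decide +kernel)] at k
      simpa [CharTwo.neg_eq] using (K.mul_mem_cancel_left (mul_mem (k6 1 0) k7)).1 k
    · simp only [← conj_mul, a33 _, a24 _, map_mul]
    · obtain ⟨i, e⟩ := hζ _ (inv_ne_zero hv)
      exact ⟨i, by rw [← pow_mul, mul_comm, pow_mul, inv_pow, e, inv_inv]⟩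
  have k9 := le_of_iter f2 k4 w0 (fun g hg => let ⟨_, e⟩ := (mem_pairF4 hθ).1 hg; e ▸ k8 _) 4
  refine gen_le ?_
  rintro _ (⟨t, rfl | rfl⟩ | ⟨t, u, rfl | rfl⟩) <;>
  simp only [wordU, f4PairWord, b2ClassWord, List.map_cons, List.map_nil, List.prod_cons, List.prod_nil,
    mul_one, pow_succ t e, mul_comm 2 e, pow_mul, ← he, ← mul_assoc]
  exacts [k8 t, k9 ⟨mul_mem (hm 14 (by decide +kernel) posJF4_0 _) (hm 23 (by decide +kernel) posJF4_0 _),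
    hM.le_fix (x2_mem_F4 he t).2⟩, hs t u ▸ k3 t u, k6 t u]

end CfsgLib.TwoGen
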